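-- Team project OPAR (S5989), package [GEOMISO] (helper54): completing `M` inside `C ⊥ M` to a
-- copy of `W₀`, from [EMB] and the OHYP packages [PERP], [SUM].
import Mathlib
import Cfsg.Agent.Lib.Helper70.OPar.Defs

set_option autoImplicit false
set_option linter.unusedSectionVars false
open scoped MatrixGroups
open Matrix

namespace Cfsg.Agent.Lib.Helper54.OPar

open Cfsg.Agent.Lib.Helper23.OHyp Cfsg.Agent.Lib.Helper70.OPar

universe u

section gen

variable {F : Type u} [Field F] {ι : Type} [Fintype ι] [DecidableEq ι]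

/-- Symmetry of `Perp`. -/
theorem perp_symm54 {Q : (ι → F) → F} {A B : Submodule F (ι → F)} (h : Perp Q A B) :
    Perp Q B A := fun u hu v hv => by
  rw [QuadraticMap.polar_comm]; exact h v hv u hu

/-- Orthogonal subspaces, one of which is nondegenerate, are disjoint. -/
theorem disjoint_of_perp54 {Q : (ι → F) → F} {A B : Submodule F (ι → F)} (h : Perp Q A B)
    (hB : Nd Q B) : Disjoint A B := by
  rw [Submodule.disjoint_def]
  intro w hwA hwB
  by_contra hw
  obtain ⟨-, x, hx, hne⟩ := hB w hwB hw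
  exact hne (h w hwA x hx)

/-- Isometries reverse. -/
theorem isometric_symm54 {Q : (ι → F) → F} {A B : Submodule F (ι → F)}
    (h : Cfsg.Geo.AreIsometricFor Q A B) : Cfsg.Geo.AreIsometricFor Q B A := by
  obtain ⟨e, he⟩ := h
  refine ⟨e.symm, fun w => ?_⟩
  have := he (e.symm w)
  simpa using this.symm

/-- Isometric subspaces have the same dimension. -/
theorem isometric_finrank54 {Q : (ι → F) → F} {A B : Submodule F (ι → F)}
    (h : Cfsg.Geo.AreIsometricFor Q A B) : Module.finrank F A = Module.finrank F B := by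
  obtain ⟨e, -⟩ := h
  exact e.finrank_eq

/-- The sum map `A × B → A ⊔ B` for disjoint subspaces, as a linear equivalence. -/
noncomputable def supEquiv54 {A B : Submodule F (ι → F)} (hd : Disjoint A B) :
    (A × B) ≃ₗ[F] ↥(A ⊔ B) :=
  (LinearEquiv.ofInjective (A.subtype.coprod B.subtype) (by
    rw [← LinearMap.ker_eq_bot, LinearMap.ker_coprod_of_disjoint_range]
    · simp
    · simpa using hd)).trans
  (LinearEquiv.ofEq _ _ (by simp [LinearMap.range_coprod]))

theorem supEquiv54_apply {A B : Submodule F (ι → F)} (hd : Disjoint A B) (p : A × B) :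
    ((supEquiv54 hd p : ↥(A ⊔ B)) : ι → F) = (p.1 : ι → F) + (p.2 : ι → F) := by
  simp [supEquiv54]

/-- The orthogonal sum of two isometries is an isometry. -/
theorem isometric_sup54 {Q : (ι → F) → F} {A B A' B' : Submodule F (ι → F)}
    (hAB : Perp Q A B) (hA'B' : Perp Q A' B') (hd : Disjoint A B) (hd' : Disjoint A' B')
    (hA : Cfsg.Geo.AreIsometricFor Q A A') (hB : Cfsg.Geo.AreIsometricFor Q B B') :
    Cfsg.Geo.AreIsometricFor Q (A ⊔ B) (A' ⊔ B') := by
  obtain ⟨eA, hA⟩ := hA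
  obtain ⟨eB, hB⟩ := hB
  refine ⟨(supEquiv54 hd).symm.trans ((eA.prodCongr eB).trans (supEquiv54 hd')), ?_⟩
  intro w
  obtain ⟨⟨a, b⟩, rfl⟩ := (supEquiv54 hd).surjective w
  have h1 : ((((supEquiv54 hd).symm.trans ((eA.prodCongr eB).trans (supEquiv54 hd')))
      (supEquiv54 hd (a, b)) : ↥(A' ⊔ B')) : ι → F) = ((eA a : A') : ι → F) + ((eB b : B') : ι → F) := by
    simp [supEquiv54_apply]
  rw [h1, supEquiv54_apply]
  have p1 := hAB a a.2 b b.2
  have p2 := hA'B' (eA a) (eA a).2 (eB b) (eB b).2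
  unfold QuadraticMap.polar at p1 p2
  have q1 := hA a
  have q2 := hB b
  simp only at p1 p2 ⊢
  linear_combination p2 - p1 + q1 + q2

end gen

/-- [GEOMISO] from [EMB] and [PERP]. -/
theorem pkgGeomIso_of' (hE : PkgEmb.{u}) (hP : PkgPerp.{u}) : PkgGeomIso.{u} := by
  intro F _ _ ι _ _ Q hQ h2 C M W₀ hC hM hCM hW₀ t ht htC hfin
  -- embed `M` in `W₀`
  obtain ⟨M', hM'le, hM'nd, hM'iso⟩ := hE F ι Q hQ h2 W₀ M hW₀ hM (by omega)
  have hM'fin : Module.finrank F M' = Module.finrank F M := isometric_finrank54 hM'iso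
  -- the complement `T` of `M'` in `W₀`
  have hinv : ∀ W : Submodule F (ι → F), Cfsg.Agent.Lib.Helper23.OHyp.Inv (1 : Matrix ι ι F) W := by
    intro W
    unfold Cfsg.Agent.Lib.Helper23.OHyp.Inv
    rw [Matrix.toLin'_one]
    simp
  obtain ⟨T, hTle, -, hTnd, hM'T, hsup, hfinT⟩ :=
    hP F ι Q hQ (1 : Matrix ι ι F) (fun v => by simp) (by simp) W₀ M' hM'le (hinv _) (hinv _)
      hW₀ hM'nd
  have hTfin : Module.finrank F T = t := by omega
  -- embed `T` in `C`
  obtain ⟨W₁, hW₁le, hW₁nd, hW₁iso⟩ := hE F ι Q hQ h2 C T hC hTnd (by omega)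
  have hW₁fin : Module.finrank F W₁ = t := by
    rw [isometric_finrank54 hW₁iso, hTfin]
  refine ⟨W₁, hW₁le, hW₁nd, hW₁fin, ?_⟩
  have hW₁M : Perp Q W₁ M := fun u hu v hv => hCM u (hW₁le hu) v hv
  have hTM' : Perp Q T M' := perp_symm54 hM'T
  have key := isometric_sup54 hW₁M hTM' (disjoint_of_perp54 hW₁M hM)
    (disjoint_of_perp54 hTM' hM'nd) hW₁iso (isometric_symm54 hM'iso)
  rw [sup_comm T M', hsup] at key
  exact key

/-- [GEOMISO] with the signature of the project list ([SUM] is not needed). -/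
theorem pkgGeomIso_of (hE : PkgEmb.{u}) (hP : PkgPerp.{u}) (_hS : PkgSum.{u}) : PkgGeomIso.{u} :=
  pkgGeomIso_of' hE hP

example : (PkgEmb.{0} → PkgPerp.{0} → PkgSum.{0} → PkgGeomIso.{0}) := pkgGeomIso_of
example : (PkgEmb.{3} → PkgPerp.{3} → PkgSum.{3} → PkgGeomIso.{3}) := pkgGeomIso_of

end Cfsg.Agent.Lib.Helper54.OPar
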